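import Cfsg.Agent.Chars.Exceptional.FrobTI

/-!
Restrictions to the kernel of exceptional characters and of the other irreducible characters.
-/

set_option autoImplicit false

namespace CfsgLib.Chars.Exceptional.FrobTI

open Cfsg
open scoped ComplexConjugate

universe u

variable {G : Type u} [Group G] [Fintype G] {K N : Subgroup G} [Fintype N]

omit [Fintype G] in
/-- The degree-zero combination of two members vanishes off the non-identity elements of `K` and is
orthogonal to the principal character. -/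
theorem diff_facts {S : Set (N → ℂ)} (hirr : ∀ ξ ∈ S, IsIrrCharacter N ξ)
    (hS : ∀ ξ ∈ S, ∀ x : N, (x : G) ∉ K → ξ x = 0) (hone : (fun _ : N => (1 : ℂ)) ∉ S)
    {a b : N → ℂ} (ha : a ∈ S) (hb : b ∈ S) :
    (a 1 • b - b 1 • a) ∈ spanOn S {1}ᶜ ∧
      classInner (fun _ : N => (1 : ℂ)) (a 1 • b - b 1 • a) = 0 ∧
      ∀ x : N, (x : G) ∉ (K : Set G) \ {1} → (a 1 • b - b 1 • a) x = 0 := by
  obtain ⟨m, -, hm⟩ := irr_degree (hirr a ha)
  obtain ⟨n, -, hn⟩ := irr_degree (hirr b hb)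
  have e : a 1 • b - b 1 • a = (m : ℤ) • b - (n : ℤ) • a := by
    rw [hm, hn, ← Int.cast_natCast (R := ℂ) m, ← Int.cast_natCast (R := ℂ) n,
      Int.cast_smul_eq_zsmul, Int.cast_smul_eq_zsmul]
  have hmem : a 1 • b - b 1 • a ∈ spanOn S {1}ᶜ := by
    rw [e]
    exact diff_mem hb ha _ _ (by simpa using hn) (by simpa using hm)
  refine ⟨hmem, ?_, spanOn_supp hS hmem⟩
  rw [inner_sub_right, inner_smul_right, inner_smul_right,
    irr_inner_ne CfsgLib.Chars.isIrrCharacter_one (hirr a ha) (fun e => hone (e ▸ ha)),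
    irr_inner_ne CfsgLib.Chars.isIrrCharacter_one (hirr b hb) (fun e => hone (e ▸ hb))]
  ring

/-- The set of relevant characters. -/
def relevant (K N : Subgroup G) : Set (N → ℂ) :=
  {χ | IsIrrCharacter N χ ∧ ∃ k : N, (k : G) ∈ K ∧ χ k ≠ χ 1}

omit [Fintype G] [Fintype N] in
theorem one_not_relevant : (fun _ : N => (1 : ℂ)) ∉ relevant K N := fun h => by
  obtain ⟨-, k, -, hk⟩ := h
  exact hk rfl

/-- For a class function of `G` orthogonal to the images of degree-zero combinations up to a fixed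
deviation, the restriction minus the deviation is constant on the non-identity elements. -/
theorem restrict_constant (h : FrobTI K N) {star : (N → ℂ) → (G → ℂ)}
    (hext : ∀ α ∈ zspanOn (relevant K N) ({1}ᶜ : Set N), star α = indFun N α)
    (ψ : G → ℂ) (hψ : IsGeneralizedCharacter G ψ) (hψc : IsClassFunction G ψ) (δ : N → ℂ)
    (hδg : IsGeneralizedCharacter N δ) (hδc : IsClassFunction N δ)
    (hne : (relevant K N).Nonempty)
    (hag : ∀ a ∈ relevant K N, ∀ b ∈ relevant K N,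
      classInner ψ (star (a 1 • b - b 1 • a)) = classInner δ (a 1 • b - b 1 • a))
    (hres : IsGeneralizedCharacter N (fun x : N => ψ x)) :
    ∃ n : ℤ, ∀ k : N, (k : G) ∈ K → k ≠ 1 → ψ k - δ k = n := by
  classical
  haveI := h.normal
  obtain ⟨a, ha⟩ := hne
  set F : N → ℂ := (fun x : N => ψ x) - δ with hF
  have hFg : IsGeneralizedCharacter N F := gen_sub hres hδg
  have hFc : IsClassFunction N F := fun g x => by
    simp only [hF, Pi.sub_apply]
    rw [hδc g x]
    congr 1
    simpa using hψc (g : G) (x : G)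
  obtain ⟨m, -, hm⟩ := irr_degree ha.1
  have hm0 : a 1 ≠ 0 := CfsgLib.Chars.map_one_ne_zero ⟨a, ha.1⟩
  set c : ℂ := classInner F a / a 1 with hc
  have hprop : ∀ b ∈ relevant K N, classInner F b = c * b 1 := by
    intro b hb
    obtain ⟨n, -, hn⟩ := irr_degree hb.1
    obtain ⟨hmem, -, -⟩ := diff_facts (K := K) (fun ξ hξ => hξ.1)
      (fun ξ (hξ : ξ ∈ relevant K N) => relevant_vanish h hξ.1 hξ.2) one_not_relevant ha hb
    have h1 := hag a ha b hb
    rw [hext _ hmem, CfsgLib.Chars.Induced.classInner_indFun_right N _ hψc, inner_sub_right,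
      inner_sub_right, inner_smul_right, inner_smul_right, inner_smul_right, inner_smul_right] at h1
    rw [hm, hn, map_natCast, map_natCast] at h1
    have eF : ∀ z : N → ℂ, classInner F z = classInner (fun x : N => ψ x) z - classInner δ z :=
      fun z => by rw [hF, inner_sub_left]
    rw [hc, hm, hn, div_mul_eq_mul_div, eq_div_iff (hm ▸ hm0), eF, eF]
    linear_combination h1
  -- `c * index` is an integer
  have hKne : Nontrivial (K.subgroupOf N) := by
    rw [Subgroup.nontrivial_iff_ne_bot]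
    intro hb
    obtain ⟨-, k, hk, hk'⟩ := ha
    have : k ∈ K.subgroupOf N := hk
    rw [hb, Subgroup.mem_bot] at this
    exact hk' (by rw [this])
  obtain ⟨q, hq⟩ : ∃ q : ℤ, c * (K.subgroupOf N).index = q := by
    refine int_of_mul_degrees (H := K.subgroupOf N) _ fun θ hθ => ?_
    have hirr := isIrrCharacter_indFun_of_centralizer_le h.cent' θ hθ
    have hrel : indFun (K.subgroupOf N) (θ : K.subgroupOf N → ℂ) ∈ relevant K N :=
      ⟨hirr, (relevant_iff hirr).mpr (not_le_charKer_indFun h.cent' θ hθ)⟩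
    obtain ⟨z, hz⟩ := gen_inner_int hFg (gen_of_irr hirr)
    refine ⟨z, ?_⟩
    rw [← hz, hprop _ hrel, CfsgLib.Chars.Induced.indFun_one_apply, mul_assoc]
  choose z hz using fun ξ : IrrCharacter N => gen_inner_int hFg (gen_of_irr ξ.2)
  refine ⟨(∑ ξ ∈ Finset.univ.filter (fun ξ : IrrCharacter N =>
    K.subgroupOf N ≤ CfsgLib.Chars.charKer (ξ : N → ℂ)), z ξ * (charDegree (ξ : N → ℂ) : ℤ)) - q,
    fun k hk hk1 => ?_⟩
  have hv := value_of_proportional (K := K.subgroupOf N) hFc c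
    (fun ξ hξ => hprop ξ ⟨ξ.2, (relevant_iff ξ.2).mpr hξ⟩) k hk hk1
  rw [hq] at hv
  show F k = _
  rw [hv, Int.cast_sub, Int.cast_sum]
  congr 1
  refine Finset.sum_congr rfl fun ξ _ => ?_
  rw [hz ξ, Int.cast_mul, Int.cast_natCast, CfsgLib.Chars.coe_charDegree]

/-- Restrictions of exceptional characters to the kernel. -/
theorem star_restriction (h : FrobTI K N) {star : (N → ℂ) → (G → ℂ)}
    (hstar : IsLinearIsometryOn (zspan (relevant K N)) star)
    (hext : ∀ α ∈ zspanOn (relevant K N) ({1}ᶜ : Set N), star α = indFun N α) :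
    ∃ m : ℤ, ∀ χ ∈ relevant K N, ∀ k : N, (k : G) ∈ K → k ≠ 1 →
      star χ k - χ k = (m : ℂ) * χ 1 / ((K.subgroupOf N).index : ℂ) := by
  classical
  haveI := h.normal
  have hst : IsLinearIsometryOn
      ((Submodule.span ℤ (relevant K N) : Submodule ℤ (N → ℂ)) : Set (N → ℂ)) star := hstar
  have hm : ∀ {x : N → ℂ}, x ∈ relevant K N → x ∈ Submodule.span ℤ (relevant K N) :=
    fun hx => Submodule.subset_span hx
  have hclass : ∀ χ ∈ relevant K N, IsClassFunction G (star χ) := fun χ hχ => by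
    obtain ⟨x, y, hx, hy, e⟩ := iso_gen hst (hm hχ)
    intro g t
    rw [e, Pi.sub_apply, Pi.sub_apply, CfsgLib.Chars.isClassFunction_of_isCharacter hx g t,
      CfsgLib.Chars.isClassFunction_of_isCharacter hy g t]
  have hres : ∀ χ ∈ relevant K N, IsGeneralizedCharacter N (fun x : N => star χ x) := fun χ hχ => by
    obtain ⟨x, y, hx, hy, e⟩ := iso_gen hst (hm hχ)
    exact ⟨_, _, CfsgLib.Chars.isCharacter_restrict hx N, CfsgLib.Chars.isCharacter_restrict hy N,
      funext fun t => by rw [e]; rfl⟩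
  have hconst : ∀ χ ∈ relevant K N, ∃ n : ℤ, ∀ k : N, (k : G) ∈ K → k ≠ 1 →
      star χ k - χ k = n := fun χ hχ => by
    refine restrict_constant h hext (star χ) (iso_gen hst (hm hχ)) (hclass χ hχ) χ (gen_of_irr hχ.1)
      (CfsgLib.Chars.isClassFunction_coe ⟨χ, hχ.1⟩) ⟨χ, hχ⟩ (fun a ha b hb => ?_) (hres χ hχ)
    obtain ⟨hmem, -, -⟩ := diff_facts (K := K) (fun ξ hξ => hξ.1)
      (fun ξ (hξ : ξ ∈ relevant K N) => relevant_vanish h hξ.1 hξ.2) one_not_relevant ha hb
    exact iso_inner hst (hm hχ) hmem.1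
  rcases (relevant K N).eq_empty_or_nonempty with he | ⟨χ₀, hχ₀⟩
  · exact ⟨0, fun χ hχ => absurd hχ (by rw [he]; exact Set.notMem_empty χ)⟩
  choose! n hn using hconst
  have hKne : Nontrivial (K.subgroupOf N) := by
    rw [Subgroup.nontrivial_iff_ne_bot]
    intro hb
    obtain ⟨-, k, hk, hk'⟩ := hχ₀
    have : k ∈ K.subgroupOf N := hk
    rw [hb, Subgroup.mem_bot] at this
    exact hk' (by rw [this])
  obtain ⟨k₀, hk₀⟩ := exists_ne (1 : K.subgroupOf N)
  have hk₀1 : (k₀ : N) ≠ 1 := fun e => hk₀ (Subtype.ext e)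
  have hprop : ∀ χ ∈ relevant K N, (n χ : ℂ) * χ₀ 1 = (n χ₀ : ℂ) * χ 1 := by
    intro χ hχ
    obtain ⟨a, -, ha⟩ := irr_degree hχ₀.1
    obtain ⟨b, -, hb⟩ := irr_degree hχ.1
    obtain ⟨hmem, -, hsupp⟩ := diff_facts (K := K) (fun ξ hξ => hξ.1)
      (fun ξ (hξ : ξ ∈ relevant K N) => relevant_vanish h hξ.1 hξ.2) one_not_relevant hχ₀ hχ
    have h1 := congrFun (hext _ hmem) ((k₀ : N) : G)
    rw [h.indFun_eq _ (spanOn_classFun (fun ξ hξ => hξ.1) hmem.1) hsupp (k₀ : N)] at h1
    have e : star (χ₀ 1 • χ - χ 1 • χ₀) = χ₀ 1 • star χ - χ 1 • star χ₀ := by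
      rw [ha, hb, ← Int.cast_natCast (R := ℂ) a, ← Int.cast_natCast (R := ℂ) b,
        Int.cast_smul_eq_zsmul, Int.cast_smul_eq_zsmul, Int.cast_smul_eq_zsmul,
        Int.cast_smul_eq_zsmul, iso_sub hst (Submodule.smul_mem _ _ (hm hχ))
          (Submodule.smul_mem _ _ (hm hχ₀)), iso_zsmul hst (hm hχ), iso_zsmul hst (hm hχ₀)]
    rw [e] at h1
    simp only [Pi.sub_apply, Pi.smul_apply, smul_eq_mul] at h1
    rw [← hn χ hχ (k₀ : N) k₀.2 hk₀1, ← hn χ₀ hχ₀ (k₀ : N) k₀.2 hk₀1]
    linear_combination h1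
  have hi : ((K.subgroupOf N).index : ℂ) ≠ 0 :=
    Nat.cast_ne_zero.mpr Subgroup.index_ne_zero_of_finite
  have h10 : χ₀ 1 ≠ 0 := CfsgLib.Chars.map_one_ne_zero ⟨χ₀, hχ₀.1⟩
  obtain ⟨q, hq⟩ : ∃ q : ℤ, (n χ₀ : ℂ) * (K.subgroupOf N).index / χ₀ 1 = q := by
    refine int_of_mul_degrees (H := K.subgroupOf N) _ fun θ hθ => ?_
    have hirr := isIrrCharacter_indFun_of_centralizer_le h.cent' θ hθ
    have hrel : indFun (K.subgroupOf N) (θ : K.subgroupOf N → ℂ) ∈ relevant K N :=
      ⟨hirr, (relevant_iff hirr).mpr (not_le_charKer_indFun h.cent' θ hθ)⟩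
    refine ⟨n (indFun (K.subgroupOf N) (θ : K.subgroupOf N → ℂ)), ?_⟩
    have h1 := hprop _ hrel
    rw [CfsgLib.Chars.Induced.indFun_one_apply] at h1
    field_simp
    linear_combination -h1
  refine ⟨q, fun χ hχ k hk hk1 => ?_⟩
  rw [hn χ hχ k hk hk1, ← hq]
  field_simp
  linear_combination hprop χ hχ

/-- An irreducible character is exceptional exactly when it is not constant on the non-identity
elements of the kernel. -/
theorem exceptional_iff (h : FrobTI K N) {star : (N → ℂ) → (G → ℂ)}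
    (hstar : IsLinearIsometryOn (zspan (relevant K N)) star)
    (hext : ∀ α ∈ zspanOn (relevant K N) ({1}ᶜ : Set N), star α = indFun N α)
    (htwo : ∃ χ ∈ relevant K N, ∃ ξ ∈ relevant K N, χ ≠ ξ)
    {ψ : G → ℂ} (hψ : IsIrrCharacter G ψ) :
    (∃ χ ∈ relevant K N, ψ = star χ ∨ ψ = -star χ) ↔
      ∃ a ∈ K, ∃ b ∈ K, a ≠ 1 ∧ b ≠ 1 ∧ ψ a ≠ ψ b := by
  classical
  haveI := h.normal
  have hst : IsLinearIsometryOn
      ((Submodule.span ℤ (relevant K N) : Submodule ℤ (N → ℂ)) : Set (N → ℂ)) star := hstar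
  constructor
  · rintro ⟨χ, hχ, hψe⟩
    by_contra hcon
    push Not at hcon
    obtain ⟨ξ, hξ, hne⟩ : ∃ ξ ∈ relevant K N, ξ ≠ χ := by
      obtain ⟨a, ha, b, hb, hab⟩ := htwo
      by_cases e : a = χ
      · exact ⟨b, hb, fun e' => hab (e.trans e'.symm)⟩
      · exact ⟨a, ha, e⟩
    obtain ⟨m, hm⟩ := star_restriction h hstar hext
    have hconst : ∀ k : N, (k : G) ∈ K → k ≠ 1 → ∀ k' : N, (k' : G) ∈ K → k' ≠ 1 → χ k = χ k' := by
      intro k hk hk1 k' hk' hk'1
      have h1 := hm χ hχ k hk hk1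
      have h2 := hm χ hχ k' hk' hk'1
      have h3 : ψ k = ψ k' := hcon _ hk _ hk' (fun e => hk1 (Subtype.ext e))
        (fun e => hk'1 (Subtype.ext e))
      rcases hψe with rfl | rfl
      · linear_combination h2 - h1 + h3
      · simp only [Pi.neg_apply] at h3
        linear_combination h2 - h1 - h3
    obtain ⟨-, hd1, hsupp⟩ := diff_facts (K := K) (fun ξ hξ => hξ.1)
      (fun ξ (hξ : ξ ∈ relevant K N) => relevant_vanish h hξ.1 hξ.2) one_not_relevant hχ hξ
    obtain ⟨hχi, k₀, hk₀, hk₀'⟩ := hχ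
    have hk₀1 : k₀ ≠ 1 := fun e => hk₀' (by rw [e])
    have e : classInner χ (χ 1 • ξ - ξ 1 • χ) =
        χ k₀ * classInner (fun _ : N => (1 : ℂ)) (χ 1 • ξ - ξ 1 • χ) := by
      simp only [classInner, Finset.mul_sum, mul_left_comm (χ k₀)]
      refine Finset.sum_congr rfl fun x _ => ?_
      by_cases hx : (x : G) ∈ (K : Set G) \ {1}
      · rw [hconst x hx.1 (fun e => hx.2 (by rw [e]; rfl)) k₀ hk₀ hk₀1]; ring
      · rw [hsupp x hx]; simp
    rw [hd1, mul_zero, inner_sub_right, inner_smul_right, inner_smul_right,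
      irr_inner_ne hχi hξ.1 hne.symm] at e
    obtain ⟨b, hb0, hb⟩ := irr_degree hξ.1
    rw [irr_inner_self hχi, hb, map_natCast] at e
    simp at e
    omega
  · rintro ⟨a, ha, b, hb, ha1, hb1, hab⟩
    by_contra hcon
    push Not at hcon
    apply hab
    have hz : ∀ χ ∈ relevant K N, classInner ψ (star χ) = 0 := by
      intro χ hχ
      obtain ⟨ε, hε, hi⟩ := gen_norm_one (iso_gen hst (Submodule.subset_span hχ))
        (by rw [iso_inner hst (Submodule.subset_span hχ) (Submodule.subset_span hχ),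
          irr_inner_self hχ.1])
      have hne : ψ ≠ (ε : ℂ) • star χ := by
        rcases hε with rfl | rfl
        · simpa using (hcon χ hχ).1
        · simpa using (hcon χ hχ).2
      have h0 := irr_inner_ne hψ hi hne
      rw [inner_smul_right] at h0
      rcases hε with rfl | rfl <;> simpa using h0
    have hψc := CfsgLib.Chars.isClassFunction_coe ⟨ψ, hψ⟩
    obtain ⟨n, hn⟩ := restrict_constant h hext ψ (gen_of_irr hψ) hψc 0 gen_zero
      (fun _ _ => rfl) (htwo.imp fun _ h => h.1) (fun x hx y hy => by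
        rw [inner_zero_left]
        obtain ⟨m, -, hm⟩ := irr_degree hx.1
        obtain ⟨k, -, hk⟩ := irr_degree hy.1
        rw [hm, hk, ← Int.cast_natCast (R := ℂ) m, ← Int.cast_natCast (R := ℂ) k,
          Int.cast_smul_eq_zsmul, Int.cast_smul_eq_zsmul,
          iso_sub hst (Submodule.smul_mem _ _ (Submodule.subset_span hy))
            (Submodule.smul_mem _ _ (Submodule.subset_span hx)),
          iso_zsmul hst (Submodule.subset_span hy), iso_zsmul hst (Submodule.subset_span hx),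
          inner_sub_right, inner_zsmul_right, inner_zsmul_right, hz x hx, hz y hy, mul_zero,
          mul_zero, sub_zero])
      (gen_of_char (CfsgLib.Chars.isCharacter_restrict (CfsgLib.Chars.isCharacter_of_isIrrCharacter hψ) N))
    have e1 := hn ⟨a, h.le ha⟩ ha (fun e => ha1 (congrArg Subtype.val e))
    have e2 := hn ⟨b, h.le hb⟩ hb (fun e => hb1 (congrArg Subtype.val e))
    simp only [Pi.zero_apply, sub_zero] at e1 e2
    rw [e1, e2]

end CfsgLib.Chars.Exceptional.FrobTI
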